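import Mathlib
import Cfsg.Agent.Lib.Helper56.TC
import Cfsg.Agent.Lib.Helper56.MYU7.D
set_option autoImplicit false
set_option maxRecDepth 1000000

namespace Cfsg.Agent.Lib.Helper56.MYU7

open Cfsg.Agent.Lib.Helper56.TC Cfsg.Agent.Lib.Helper56.TC.Tabs

theorem cN_0 : allRange (fun x => forceN T.chkName x) 0 581 = true := by decide +kernel
theorem cN_581 : allRange (fun x => forceN T.chkName x) 581 583 = true := by decide +kernel
theorem cN_1164 : allRange (fun x => forceN T.chkName x) 1164 583 = true := by decide +kernel
theorem cN_1747 : allRange (fun x => forceN T.chkName x) 1747 585 = true := by decide +kernel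
theorem cN_2332 : allRange (fun x => forceN T.chkName x) 2332 585 = true := by decide +kernel
theorem cN_2917 : allRange (fun x => forceN T.chkName x) 2917 584 = true := by decide +kernel
theorem cN_3501 : allRange (fun x => forceN T.chkName x) 3501 585 = true := by decide +kernel
theorem cN_4086 : allRange (fun x => forceN T.chkName x) 4086 587 = true := by decide +kernel
theorem cN_4673 : allRange (fun x => forceN T.chkName x) 4673 584 = true := by decide +kernel
theorem cN_5257 : allRange (fun x => forceN T.chkName x) 5257 586 = true := by decide +kernel
theorem cN_5843 : allRange (fun x => forceN T.chkName x) 5843 585 = true := by decide +kernel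
theorem cN_6428 : allRange (fun x => forceN T.chkName x) 6428 583 = true := by decide +kernel

end Cfsg.Agent.Lib.Helper56.MYU7
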