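import Mathlib
import Cfsg.Agent.Lib.Helper56.TC
import Cfsg.Agent.Lib.Helper56.MYU7.D
set_option autoImplicit false
set_option maxRecDepth 1000000

namespace Cfsg.Agent.Lib.Helper56.MYU7

open Cfsg.Agent.Lib.Helper56.TC Cfsg.Agent.Lib.Helper56.TC.Tabs

theorem cN_7011 : allRange (fun x => forceN T.chkName x) 7011 586 = true := by decide +kernel
theorem cN_7597 : allRange (fun x => forceN T.chkName x) 7597 586 = true := by decide +kernel
theorem cN_8183 : allRange (fun x => forceN T.chkName x) 8183 584 = true := by decide +kernel
theorem cN_8767 : allRange (fun x => forceN T.chkName x) 8767 584 = true := by decide +kernel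
theorem cN_9351 : allRange (fun x => forceN T.chkName x) 9351 587 = true := by decide +kernel
theorem cN_9938 : allRange (fun x => forceN T.chkName x) 9938 586 = true := by decide +kernel
theorem cN_10524 : allRange (fun x => forceN T.chkName x) 10524 584 = true := by decide +kernel
theorem cN_11108 : allRange (fun x => forceN T.chkName x) 11108 587 = true := by decide +kernel
theorem cN_11695 : allRange (fun x => forceN T.chkName x) 11695 585 = true := by decide +kernel
theorem cN_12280 : allRange (fun x => forceN T.chkName x) 12280 583 = true := by decide +kernel
theorem cN_12863 : allRange (fun x => forceN T.chkName x) 12863 584 = true := by decide +kernel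
theorem cN_13447 : allRange (fun x => forceN T.chkName x) 13447 584 = true := by decide +kernel

end Cfsg.Agent.Lib.Helper56.MYU7
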