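import Mathlib
import Cfsg.Agent.Lib.Helper56.TC
import Cfsg.Agent.Lib.Helper56.MYU7.D
set_option autoImplicit false
set_option maxRecDepth 1000000

namespace Cfsg.Agent.Lib.Helper56.MYU7

open Cfsg.Agent.Lib.Helper56.TC Cfsg.Agent.Lib.Helper56.TC.Tabs

theorem cN_14031 : allRange (fun x => forceN T.chkName x) 14031 583 = true := by decide +kernel
theorem cN_14614 : allRange (fun x => forceN T.chkName x) 14614 583 = true := by decide +kernel
theorem cN_15197 : allRange (fun x => forceN T.chkName x) 15197 581 = true := by decide +kernel
theorem cN_15778 : allRange (fun x => forceN T.chkName x) 15778 582 = true := by decide +kernel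
theorem cN_16360 : allRange (fun x => forceN T.chkName x) 16360 577 = true := by decide +kernel
theorem cN_16937 : allRange (fun x => forceN T.chkName x) 16937 343 = true := by decide +kernel
theorem cV_0 : allRange (fun x => forceN T.chkV x) 0 837 = true := by decide +kernel
theorem cV_837 : allRange (fun x => forceN T.chkV x) 837 837 = true := by decide +kernel
theorem cV_1674 : allRange (fun x => forceN T.chkV x) 1674 837 = true := by decide +kernel
theorem cV_2511 : allRange (fun x => forceN T.chkV x) 2511 837 = true := by decide +kernel
theorem cV_3348 : allRange (fun x => forceN T.chkV x) 3348 837 = true := by decide +kernel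
theorem cV_4185 : allRange (fun x => forceN T.chkV x) 4185 837 = true := by decide +kernel

end Cfsg.Agent.Lib.Helper56.MYU7
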