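import Mathlib
import Cfsg.Agent.Lib.Helper56.TC
import Cfsg.Agent.Lib.Helper56.MYU7.D
set_option autoImplicit false
set_option maxRecDepth 1000000

namespace Cfsg.Agent.Lib.Helper56.MYU7

open Cfsg.Agent.Lib.Helper56.TC Cfsg.Agent.Lib.Helper56.TC.Tabs

theorem cV_5022 : allRange (fun x => forceN T.chkV x) 5022 837 = true := by decide +kernel
theorem cV_5859 : allRange (fun x => forceN T.chkV x) 5859 837 = true := by decide +kernel
theorem cV_6696 : allRange (fun x => forceN T.chkV x) 6696 837 = true := by decide +kernel
theorem cV_7533 : allRange (fun x => forceN T.chkV x) 7533 837 = true := by decide +kernel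
theorem cV_8370 : allRange (fun x => forceN T.chkV x) 8370 837 = true := by decide +kernel
theorem cV_9207 : allRange (fun x => forceN T.chkV x) 9207 837 = true := by decide +kernel
theorem cV_10044 : allRange (fun x => forceN T.chkV x) 10044 837 = true := by decide +kernel
theorem cV_10881 : allRange (fun x => forceN T.chkV x) 10881 837 = true := by decide +kernel
theorem cV_11718 : allRange (fun x => forceN T.chkV x) 11718 837 = true := by decide +kernel
theorem cV_12555 : allRange (fun x => forceN T.chkV x) 12555 837 = true := by decide +kernel
theorem cV_13392 : allRange (fun x => forceN T.chkV x) 13392 837 = true := by decide +kernel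
theorem cV_14229 : allRange (fun x => forceN T.chkV x) 14229 837 = true := by decide +kernel

end Cfsg.Agent.Lib.Helper56.MYU7
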