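import Mathlib
import Cfsg.Agent.Lib.Helper56.TC
import Cfsg.Agent.Lib.Helper56.MYU7.D
set_option autoImplicit false
set_option maxRecDepth 1000000

namespace Cfsg.Agent.Lib.Helper56.MYU7

open Cfsg.Agent.Lib.Helper56.TC Cfsg.Agent.Lib.Helper56.TC.Tabs

theorem cV_15066 : allRange (fun x => forceN T.chkV x) 15066 837 = true := by decide +kernel
theorem cV_15903 : allRange (fun x => forceN T.chkV x) 15903 837 = true := by decide +kernel
theorem cV_16740 : allRange (fun x => forceN T.chkV x) 16740 540 = true := by decide +kernel

end Cfsg.Agent.Lib.Helper56.MYU7
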